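import Mathlib
import Cfsg.Agent.H600.RIM.ExcMain
import Cfsg.Agent.H337.RIM.PartA6
import Cfsg.Agent.H724.RIM.PartY
import Cfsg.Agent.H159.RIM.PartT
import Cfsg.Agent.H886.RIM.PartM

/-!
# S4816, box EXC: the end (helper600; helper337 (A6), helper724 (Y), helper159 (T), helper886 (M))
-/

set_option autoImplicit false

namespace Cfsg.Agent.H600.RIM.Exc

open Cfsg.Agent.H229.RIM Cfsg.Agent.H229.NX

universe u

/-- **Box EXC.** -/
theorem noExc (P : Pow) (him : Cfsg.Agent.H37.NX.IM.{u} 5) : NoExc.{u} :=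
  noExc_of P him Cfsg.Agent.H337.RIM.partA6 Cfsg.Agent.H724.RIM.partY (Cfsg.Agent.H886.RIM.partM P)
    Cfsg.Agent.H159.RIM.partT

end Cfsg.Agent.H600.RIM.Exc
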